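import Mathlib
import Cfsg.Statements.S2943
import Cfsg.Statements.S2948
import Cfsg.Statements.S2950
import Cfsg.Statements.S2951
import Cfsg.Agent.Lib.Helper11.ThompsonSylow

set_option autoImplicit false

/-!
# Core of S2952 (K-S 12: a `J(T)`-component outside `M` is normal in `⟨K, T⟩`)

`S2952` follows from the statements `S2943`, `S2948`, `S2950`, `S2951`: after replacing the Sylow
subgroup `S` by an `M`-conjugate containing `T`, `S2950` gives the maximal 2-local `L ≥ K ⊔ J(T)`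
with `T` Sylow in `L`, `S2948` gives `L ∈ jOvergroups T`, `S2951` gives `Z₀ ∩ W_K ≠ 1` with
`Z₀ ≤ Z(T)` in each of its three alternatives, and `S2943` gives `T ≤ N_G(K)`.
-/

namespace Cfsg.Agent.Lib.Helper35.KS12

open Cfsg

universe u

variable {G : Type u} [Group G]

/-- `Ω₁(Z(X)) ≤ X ⊓ C_G(X)`. -/
theorem omegaCenterOf_le_inf (X : Subgroup G) :
    omegaCenterOf X ≤ X ⊓ Subgroup.centralizer (X : Set G) := by
  unfold omegaCenterOf omegaOne
  rw [Subgroup.closure_le]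
  intro x hx
  exact hx.1

/-- A 2-subgroup `T` of `M` lies in an `M`-conjugate of any Sylow 2-subgroup `S ≤ M` of `G`. -/
theorem exists_smul_sylow_ge [Finite G] (S : Sylow 2 G) {M T : Subgroup G}
    (hSM : (S : Subgroup G) ≤ M) (hT : IsPGroup 2 ↥T) (hTM : T ≤ M) :
    ∃ m ∈ M, T ≤ ((m • S : Sylow 2 G) : Subgroup G) := by
  have : Fact (Nat.Prime 2) := ⟨Nat.prime_two⟩
  have hT' : IsPGroup 2 ↥(T.subgroupOf M) :=
    hT.comap_of_injective (M.subtype) (Subgroup.subtype_injective M)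
  obtain ⟨P, hP⟩ := hT'.exists_le_sylow
  obtain ⟨m, hm⟩ := MulAction.exists_smul_eq ↥M (S.subtype hSM) P
  refine ⟨(m : G), m.2, ?_⟩
  intro t ht
  have h1 : (⟨t, hTM ht⟩ : ↥M) ∈ (P : Subgroup ↥M) := hP (by
    rw [Subgroup.mem_subgroupOf]; exact ht)
  rw [← hm, Cfsg.Agent.Lib.Helper11.mem_sylow_smul_iff'] at h1
  have h2 : ((m⁻¹ * ⟨t, hTM ht⟩ * m : ↥M) : G) ∈ (S : Subgroup G) := h1
  rw [Cfsg.Agent.Lib.Helper11.mem_sylow_smul_iff']
  simpa using h2

/-- **Core of S2952**, from the statements S2943, S2948, S2950 and S2951. -/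
theorem s2952_core [Finite G] (hL : Cfsg.IsCharacteristicTwoType G)
    (hN : ∀ N : Subgroup G, Cfsg.IsTwoLocal N → Group.IsSolvable ↥N)
    (hZ : ∀ S : Sylow 2 G, Subgroup.centralizer (Cfsg.omegaCenterOf (S : Subgroup G) : Set G) ≤
      Subgroup.normalizer ((S : Subgroup G) : Set G))
    (hO : Cfsg.pCore 2 G = ⊥)
    (h2943 : type_of% (@Cfsg.CfsgFrozen.S2943 G _ _ hL hN hZ))
    (h2948 : type_of% (@Cfsg.CfsgFrozen.S2948 G _ _ hL hN hZ hO))
    (h2950 : type_of% (@Cfsg.CfsgFrozen.S2950 G _ _ hL hN hZ hO))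
    (h2951 : type_of% (@Cfsg.CfsgFrozen.S2951 G _ _ hL hN hZ hO))
    (S : Sylow 2 G) (M : Subgroup G) (hM : Cfsg.IsTwoLocal M)
    (hMJ : Subgroup.normalizer (Cfsg.thompsonSubgroupOf 2 (S : Subgroup G) : Set G) ≤ M)
    (T : Subgroup G) (hT : T ∈ Cfsg.maxStraddlingTwoSubgroups M)
    (K : Subgroup G) (hK : K ∈ Cfsg.jComponentsOutside M T) :
    (K.subgroupOf (K ⊔ T)).Normal := by
  obtain ⟨hT2, hT1, hTM, -⟩ := hT.1
  -- `S ≤ M`
  have hSM : (S : Subgroup G) ≤ M :=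
    (Subgroup.le_normalizer.trans
      (Cfsg.Agent.Lib.Helper11.normalizer_le_normalizer_thompsonSubgroupOf 2 _)).trans hMJ
  -- an `M`-conjugate `S'` of `S` containing `T`
  obtain ⟨m, hmM, hTS'⟩ := exists_smul_sylow_ge S hSM hT2 hTM
  have hMJ' : Subgroup.normalizer
      (Cfsg.thompsonSubgroupOf 2 ((m • S : Sylow 2 G) : Subgroup G) : Set G) ≤ M := by
    rw [Cfsg.Agent.Lib.Helper11.thompsonSubgroupOf_smul]
    intro x hx
    have h1 : m⁻¹ * x * m ∈
        Subgroup.normalizer (Cfsg.thompsonSubgroupOf 2 (S : Subgroup G) : Set G) := by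
      rw [Subgroup.mem_normalizer_iff] at hx ⊢
      intro y
      have h2 := hx (m * y * m⁻¹)
      rw [Cfsg.Agent.Lib.Helper11.mem_map_conj_iff',
        Cfsg.Agent.Lib.Helper11.mem_map_conj_iff'] at h2
      have e1 : m⁻¹ * (m * y * m⁻¹) * m = y := by group
      have e2 : m⁻¹ * (x * (m * y * m⁻¹) * x⁻¹) * m = m⁻¹ * x * m * y * (m⁻¹ * x * m)⁻¹ := by
        group
      rw [e1, e2] at h2
      exact h2
    have h3 := M.mul_mem (M.mul_mem hmM (hMJ h1)) (M.inv_mem hmM)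
    have e3 : m * (m⁻¹ * x * m) * m⁻¹ = x := by group
    rwa [e3] at h3
  -- the maximal 2-local `L`
  obtain ⟨L, hLmax, hKL, -, -, hTL⟩ := h2950 S M hM hMJ T hT K hK
  have hKL' : K ≤ L := le_sup_left.trans hKL
  have hLM : ¬ L ≤ M := fun h => hK.2.1 (hKL'.trans h)
  have hJT : Cfsg.thompsonSubgroupOf 2 T ≤ T :=
    Cfsg.Agent.Lib.Helper11.thompsonSubgroupOf_le 2 T
  have hLT : L ∈ Cfsg.jOvergroups T :=
    ((h2948 S M hM hMJ T hT L hLmax.1 hLM T hTL hJT).2.2.2 hTL.1).1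
  -- S2951
  obtain ⟨hZW, hcase⟩ := h2951 (m • S) M hM hMJ' T hT hTS' K hK L hLmax hKL
    (Cfsg.omegaCenterOf ((m • S : Sylow 2 G) : Subgroup G))
    (Cfsg.omegaCenterOf (Cfsg.thompsonSubgroupOf 2 T)) rfl rfl
  have hZ0T : Cfsg.omegaCenterOf (Cfsg.thompsonSubgroupOf 2 T) ≤ T :=
    ((omegaCenterOf_le_inf _).trans inf_le_left).trans hJT
  have hZS : Cfsg.omegaCenterOf ((m • S : Sylow 2 G) : Subgroup G) ≤
      Subgroup.centralizer (T : Set G) :=
    ((omegaCenterOf_le_inf _).trans inf_le_right).trans (Subgroup.centralizer_le hTS')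
  have hZ0C : Cfsg.omegaCenterOf (Cfsg.thompsonSubgroupOf 2 T) ≤
      Subgroup.centralizer (T : Set G) := by
    rcases hcase with ⟨h1, -⟩ | ⟨h1, -, -⟩ | ⟨h1, -, -⟩
    · rw [← h1]; exact hZS
    · rw [← h1]; exact hZS
    · rw [← h1]; exact (omegaCenterOf_le_inf _).trans inf_le_right
  have hZW' : T ⊓ Subgroup.centralizer (T : Set G) ⊓ Cfsg.wOf K ≠ ⊥ := by
    intro h
    apply hZW
    rw [eq_bot_iff, ← h]
    exact inf_le_inf_right _ (le_inf hZ0T hZ0C)
  have hTN : T ≤ Subgroup.normalizer (K : Set G) :=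
    h2943 T hT2 hT1 L hLT K hK.1.1 hKL' hZW'
  have hKT : K ⊔ T ≤ Subgroup.normalizer (K : Set G) := sup_le Subgroup.le_normalizer hTN
  exact (Subgroup.normal_subgroupOf_iff_le_normalizer le_sup_left).mpr hKT

end Cfsg.Agent.Lib.Helper35.KS12
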